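import Cfsg.Agent.GW.T4
import Cfsg.Agent.GW.P5
import Cfsg.Agent.GW.C5
import Cfsg.Agent.GW.E5a
import Cfsg.Agent.GW.E5b2
import Cfsg.Agent.GW.E5c

/-! Gorenstein-Walter: the hypothesis free forms of parts T and E5c. -/

set_option autoImplicit false

namespace Cfsg.Agent.GW

open Cfsg Subgroup Cfsg.Agent.GT Cfsg.Agent.Cls Cfsg.Agent.GW.Ia

universe u

theorem pft : PFT.{u} := fun _ _ _ _ _ _ _ _ s hv hvA hσ => s.pf1 hv hvA hσ

variable {G : Type u} [Group G] [Finite G] [IsSimpleGroup G] {S A L M X B Z W : Subgroup G}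
  {t s : G} {n r p : ℕ}

theorem Min.se (h : Min S A t) (hM : M ≠ ⊤) (hH : C1[t] ≤ M)
    (one : ∀ u ∈ M, orderOf u = 2 → ∃ g ∈ M, g * t * g⁻¹ = u) : Nat.card G = 60 ∧ Nat.card M = 12 :=
  h.se' pft hM hH one

theorem Min.t26 (h : Min S A t) : T26 (⊤ : Subgroup G) := h.t26' pp pft

theorem Cg.false (h : Cg S A L X B Z W t s n r p) (pf2 : PF2 G) (pf3 : PF3 G) : False :=
  h.false' h.der h.ndvd (fun _ hy ho hp hi hF => h.star hy ho hp hi hF) pf2 pf3

end Cfsg.Agent.GW
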